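import Cfsg.Agent.Lib.Helper28.CoverM
import Cfsg.Agent.Lib.Helper28.HeMult.HeSide
import Cfsg.Agent.Lib.Helper28.HeMult.L0.D
import Cfsg.Agent.Lib.Helper28.HeMult.L1.D
import Cfsg.Agent.Lib.Helper28.HeMult.L2.D

/-!
# The Schur multiplier of the Held group is trivial (helper28)

The cover group `E0` of the presentation of the Held group (`Cov.coverRels`) has order at most
`4116 * 240 * 4080 = |He|`: a subgroup of index at most `4116` is an image of the cover group `E1`
of a presentation of `Sp4(4)`, which has a subgroup of index at most `240` that is an image of the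
cover group `E2` of a presentation of `L2(16)`, of order at most `4080` (coset enumeration
certificates `L0`, `L1`, `L2`).  Every stem extension of the Held group is an image of `E0`
(`Cov.stem_surj`), hence trivial.
-/

set_option autoImplicit false
set_option maxRecDepth 1000000

namespace Cfsg.Agent.Lib.Helper28.HeMult

open Cfsg.Spor
open Cfsg.Agent.Lib.Helper56.TC (Tabs ew ew_cons ew_nil ew_append ew_congr)
open Cfsg.Agent.Lib.Helper19
open Cfsg.Agent.Lib.Helper19.HePres (R gn gP idx)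
open Cfsg.Agent.Lib.Helper28.Cov Cfsg.Agent.Lib.Helper28.CovL
open Cfsg.Agent.Lib.Helper28.HeMult.Words
open Cfsg.Agent.Lib.Helper28.HeMult.HeSide
open scoped commutatorElement

/-- the generator names `Fin n` -/
def nmF (n : ℕ) [NeZero n] (i : ℕ) : Fin n := ⟨i % n, Nat.mod_lt _ (NeZero.pos n)⟩

theorem nmF_idx (n : ℕ) [NeZero n] (y : Fin n) : y.val < n ∧ nmF n y.val = y :=
  ⟨y.2, Fin.ext (Nat.mod_eq_of_lt y.2)⟩

theorem idx_nmF (n : ℕ) [NeZero n] (x : ℕ) (hx : x < n) : (nmF n x).val = x :=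
  Nat.mod_eq_of_lt hx

/-! ### Level 2 -/

/-- the factorisations of level 2 -/
def fac2 (x : ℕ) : List (List ℕ) := facsL2.getD x []

/-- the relators of level 2 -/
def S2 : Set (FreeGroup (Fin 2)) := {x | ∃ l ∈ relL2, x = wd (nmF 2) l}

/-- the cover group of level 2 -/
abbrev E2 : Type := PresentedGroup (coverRels S2 (cw (nmF 2) (fun y => y.val) fac2))

theorem lok2 : LOk 2 relL2 fac2 := ⟨by decide +kernel, by decide +kernel, by decide +kernel⟩

theorem card_E2 (hC : CertC L2.T) : Finite E2 ∧ Nat.card E2 ≤ 4080 := by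
  obtain ⟨h1, h2⟩ := level_card_le (nmF 2) (fun y => y.val) 2 relL2 fac2 S2 hC rfl rfl
    (nmF_idx 2) (idx_nmF 2) (fun l hl => ⟨l, hl, rfl⟩) ⊥
    (fun s hs => absurd hs List.not_mem_nil)
  refine ⟨h1, ?_⟩
  have e : L2.T.N = 4080 := rfl
  rw [e, Subgroup.card_bot, mul_one] at h2
  exact h2

/-! ### Level 1 -/

/-- the factorisations of level 1 -/
def fac1 (x : ℕ) : List (List ℕ) := facsL1.getD x []

/-- the relators of level 1 -/
def S1 : Set (FreeGroup (Fin 3)) := {x | ∃ l ∈ relL1, x = wd (nmF 3) l}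

/-- the cover group of level 1 -/
abbrev E1 : Type := PresentedGroup (coverRels S1 (cw (nmF 3) (fun y => y.val) fac1))

theorem lok1 : LOk 3 relL1 fac1 := ⟨by decide +kernel, by decide +kernel, by decide +kernel⟩

/-- the generators of `E1` -/
noncomputable abbrev g1 : ℕ → E1 := cg (nmF 3) S1 (cw (nmF 3) (fun y => y.val) fac1)

theorem rel2_lt : ∀ l ∈ relL2, ∀ a ∈ l, a / 2 < 2 := by decide +kernel

theorem rel2_sub : ∀ l ∈ relL2, l ∈ relL1 := by decide +kernel

theorem sub1_lt : ∀ y : Fin 2, ∀ a ∈ (2 * y.val) :: (fac2 y.val).flatten, a / 2 < 2 := by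
  decide +kernel

theorem exists_φ2 : ∃ φ : E2 →* E1, ∀ s ∈ subs1, ew (gl g1) s ∈ φ.range := by
  have hw := cw_mem_commutator (nmF 2) (fun y => y.val) 2 relL2 fac2 (nmF_idx 2) lok2
  have hw' := cw_mem_normalClosure (nmF 2) (fun y => y.val) 2 relL2 fac2 S2 (nmF_idx 2) lok2
    (fun l hl => ⟨l, hl, rfl⟩)
  let h : Fin 2 → E1 := fun y => g1 y.val
  have hh : ∀ i < 2, h (nmF 2 i) = g1 i := by
    intro i hi
    show g1 (nmF 2 i).val = g1 i
    rw [idx_nmF 2 i hi]
  have hlift : ∀ l : List ℕ, (∀ a ∈ l, a / 2 < 2) →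
      FreeGroup.lift h (wd (nmF 2) l) = ew (gl g1) l := by
    intro l hl
    rw [lift_wd]
    exact ew_gl_congr _ _ 2 hh l hl
  have hS : ∀ s ∈ S2, FreeGroup.lift h s ∈ Subgroup.center E1 := by
    rintro s ⟨l, hl, rfl⟩
    rw [hlift l (rel2_lt l hl)]
    have h1 : ew (gl g1) l = PresentedGroup.mk _ (wd (nmF 3) l) := (mk_wd _ _ l).symm
    rw [h1]
    apply mk_mem_center
    exact Subgroup.subset_normalClosure ⟨l, rel2_sub l hl, rfl⟩
  obtain ⟨φ, -, hφ, -⟩ := cover_hom S2 _ hw hw' (Subgroup.center E1) le_rfl h hS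
  refine ⟨φ, ?_⟩
  have key : ∀ y : Fin 2, ew (gl g1) ((2 * y.val) :: (fac2 y.val).flatten) ∈ φ.range := by
    intro y
    refine ⟨PresentedGroup.of y, ?_⟩
    rw [hφ y]
    have e : cw (nmF 2) (fun y => y.val) fac2 y =
        wd (nmF 2) ((2 * y.val) :: (fac2 y.val).flatten) := by
      unfold cw wd
      rw [ew_cons, gl_even, (nmF_idx 2 y).2]
    rw [e, hlift _ (sub1_lt y)]
  intro s hs
  simp only [subs1, List.mem_cons, List.not_mem_nil, or_false] at hs
  rcases hs with rfl | rfl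
  · exact key 0
  · exact key 1

theorem card_E1 (hC1 : CertC L1.T) (hC2 : CertC L2.T) :
    Finite E1 ∧ Nat.card E1 ≤ 240 * 4080 := by
  obtain ⟨φ, hφ⟩ := exists_φ2
  obtain ⟨f2, c2⟩ := card_E2 hC2
  have : Finite E2 := f2
  have hfin : Finite φ.range := Finite.of_surjective _ φ.rangeRestrict_surjective
  have hcard : Nat.card φ.range ≤ 4080 :=
    le_trans (Nat.card_le_card_of_surjective _ φ.rangeRestrict_surjective) c2
  obtain ⟨h1, h2⟩ := level_card_le (nmF 3) (fun y => y.val) 3 relL1 fac1 S1 hC1 rfl rfl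
    (nmF_idx 3) (idx_nmF 3) (fun l hl => ⟨l, hl, rfl⟩) φ.range hφ
  refine ⟨h1, le_trans h2 ?_⟩
  have e : L1.T.N = 240 := rfl
  rw [e]
  exact Nat.mul_le_mul_left _ hcard

/-! ### Level 0 -/

/-- the factorisations of level 0 -/
def fac0 (x : ℕ) : List (List ℕ) := facsL0.getD x []

/-- the cover group of the Held group -/
abbrev E0 : Type := PresentedGroup (coverRels R (cw gn idx fac0))

theorem lok0 : LOk 7 relL0 fac0 := ⟨by decide +kernel, by decide +kernel, by decide +kernel⟩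

theorem gn_idx : ∀ y : He.Gen, idx y < 7 ∧ gn (idx y) = y := by
  intro y
  cases y <;> exact ⟨by decide, rfl⟩

theorem idx_gn : ∀ x < 7, idx (gn x) = x := by
  intro x hx
  interval_cases x <;> rfl

/-- the generators of `E0` -/
noncomputable abbrev g0 : ℕ → E0 := cg gn R (cw gn idx fac0)

theorem hW_mod (i : ℕ) : hW (i % 3) = hW i := by
  unfold hW
  rw [Nat.mod_mod]

theorem exists_φ1 : ∃ φ : E1 →* E0, ∀ s ∈ subs0, ew (gl g0) s ∈ φ.range := by
  have hw1 := cw_mem_commutator (nmF 3) (fun y => y.val) 3 relL1 fac1 (nmF_idx 3) lok1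
  have hw1' := cw_mem_normalClosure (nmF 3) (fun y => y.val) 3 relL1 fac1 S1 (nmF_idx 3) lok1
    (fun l hl => ⟨l, hl, rfl⟩)
  have hw0' := cw_mem_normalClosure gn idx 7 relL0 fac0 R gn_idx lok0 relL0_mem
  obtain ⟨π, hπ, hker⟩ := exists_proj R (cw gn idx fac0) hw0'
  have hπg : ∀ i, π (g0 i) = gP i := fun i => hπ _
  have eπ : (fun i => π (g0 i)) = gP := funext hπg
  have hπew : ∀ w : List ℕ, π (ew g0 w) = ew gP w := by
    intro w
    rw [Tabs.map_ew, eπ]
  have hπgl : ∀ l : List ℕ, π (ew (gl g0) l) = ew (gl gP) l := by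
    intro l
    rw [map_ew_gl, eπ]
  let h : Fin 3 → E0 := fun y => ew g0 (hW y.val)
  have hπh : ∀ i, π (h (nmF 3 i)) = hQ i := by
    intro i
    show π (ew g0 (hW (i % 3))) = ew gP (hW i)
    rw [hπew, hW_mod]
  have eh : (fun i => π (h (nmF 3 i))) = hQ := funext hπh
  have hπlift : ∀ l : List ℕ, π (FreeGroup.lift h (wd (nmF 3) l)) = ew (gl hQ) l := by
    intro l
    rw [lift_wd, map_ew_gl, eh]
  have hS : ∀ s ∈ S1, FreeGroup.lift h s ∈ Subgroup.center E0 := by
    rintro s ⟨l, hl, rfl⟩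
    apply hker
    rw [MonoidHom.mem_ker, hπlift, rel1_He l hl]
  obtain ⟨φ, -, -, hφ⟩ := cover_hom S1 _ hw1 hw1' (Subgroup.center E0) le_rfl h hS
  refine ⟨φ, ?_⟩
  have key : ∀ p ∈ subW, ew (gl g0) p.1 * (φ (PresentedGroup.mk _ (wd (nmF 3) p.2)))⁻¹ ∈
      Subgroup.center E0 := by
    intro p hp
    have h1 := hφ (wd (nmF 3) p.2)
    have h2 : ew (gl g0) p.1 * (FreeGroup.lift h (wd (nmF 3) p.2))⁻¹ ∈ Subgroup.center E0 := by
      apply hker
      rw [MonoidHom.mem_ker, map_mul, map_inv, hπgl, hπlift, subW_eq p hp, mul_inv_cancel]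
    have e : ew (gl g0) p.1 * (φ (PresentedGroup.mk _ (wd (nmF 3) p.2)))⁻¹ =
        (ew (gl g0) p.1 * (FreeGroup.lift h (wd (nmF 3) p.2))⁻¹) *
          (φ (PresentedGroup.mk _ (wd (nmF 3) p.2)) *
            (FreeGroup.lift h (wd (nmF 3) p.2))⁻¹)⁻¹ := by group
    rw [e]
    exact Subgroup.mul_mem _ h2 (Subgroup.inv_mem _ h1)
  intro s hs
  obtain ⟨p, hp, q, hq, rfl⟩ := subs0_mem s hs
  rw [ew_commL2]
  exact comm_mem_range φ _ _ _ _ (key p hp) (key q hq)

theorem card_E0 (hC0 : CertC L0.T) (hC1 : CertC L1.T) (hC2 : CertC L2.T) :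
    Finite E0 ∧ Nat.card E0 ≤ 4030387200 := by
  obtain ⟨φ, hφ⟩ := exists_φ1
  obtain ⟨f1, c1⟩ := card_E1 hC1 hC2
  have : Finite E1 := f1
  have hfin : Finite φ.range := Finite.of_surjective _ φ.rangeRestrict_surjective
  have hcard : Nat.card φ.range ≤ 240 * 4080 :=
    le_trans (Nat.card_le_card_of_surjective _ φ.rangeRestrict_surjective) c1
  obtain ⟨h1, h2⟩ := level_card_le gn idx 7 relL0 fac0 R hC0 rfl rfl gn_idx idx_gn relL0_mem
    φ.range hφ
  refine ⟨h1, le_trans h2 ?_⟩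
  have e : L0.T.N = 4116 := rfl
  rw [e]
  calc 4116 * Nat.card φ.range ≤ 4116 * (240 * 4080) := Nat.mul_le_mul_left _ hcard
    _ = 4030387200 := by norm_num

/-- Every finite stem extension of the presented Held group is an isomorphism. -/
theorem he_stem_trivial (hC0 : CertC L0.T) (hC1 : CertC L1.T) (hC2 : CertC L2.T)
    {Γ : Type*} [Group Γ] [Finite Γ] (σ : Γ →* PresentedGroup R)
    (hσ : Cfsg.IsStemExtension σ) : σ.ker = ⊥ := by
  obtain ⟨f0, c0⟩ := card_E0 hC0 hC1 hC2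
  have : Finite E0 := f0
  have hw0 := cw_mem_commutator gn idx 7 relL0 fac0 gn_idx lok0
  have hw0' := cw_mem_normalClosure gn idx 7 relL0 fac0 R gn_idx lok0 relL0_mem
  apply stem_trivial R (cw gn idx fac0) hw0 hw0' _ σ hσ
  rw [HePres.main.2]
  exact c0

/-- The Schur multiplier of the Held group is trivial. -/
theorem he_multiplier (hC0 : CertC L0.T) (hC1 : CertC L1.T) (hC2 : CertC L2.T) :
    Cfsg.HasCyclicSchurMultiplier Cfsg.Spor.He 1 := by
  have hfin : Finite Cfsg.Spor.He :=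
    Nat.finite_of_card_ne_zero (by rw [HePres.main.2]; norm_num)
  refine ⟨⟨Cfsg.Spor.He, inferInstance, hfin, MonoidHom.id _, ⟨Function.surjective_id, ?_, ?_⟩,
    ?_⟩, ?_⟩
  · rw [MonoidHom.ker_id]
    exact bot_le
  · rw [MonoidHom.ker_id]
    exact bot_le
  · rw [MonoidHom.ker_id]
    exact ⟨MulEquiv.ofUnique⟩
  · intro Γ _ _ σ hσ
    have hker := he_stem_trivial hC0 hC1 hC2 σ hσ
    refine ⟨1, ?_⟩
    intro x
    refine ⟨1, ?_⟩
    apply Subtype.ext
    have hinj := (MonoidHom.ker_eq_bot_iff σ).mp hker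
    have hx : σ (x : Γ) = σ 1 := by
      rw [map_one]
      exact MonoidHom.mem_ker.mp x.2
    rw [MonoidHom.one_apply, OneMemClass.coe_one]
    exact (hinj hx).symm

end Cfsg.Agent.Lib.Helper28.HeMult
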